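import Cfsg.Agent.Lib.Cores.Fitting
import Cfsg.Agent.Lib.Cores.MinimalNormal
import Cfsg.Agent.Lib.Cores.Schmidt
import Cfsg.Agent.Lib.Hall.Existence
import Cfsg.Agent.Lib.Subnormal.Join

/-!
Carter subgroups of finite solvable groups: existence and conjugacy.
-/

set_option autoImplicit false
set_option linter.style.haveILetI false

namespace CfsgLib.Cores

universe u

open scoped Pointwise

variable {G : Type u} [Group G]

/-- A Carter subgroup: nilpotent and self-normalising. -/
def IsCarterSubgroup (C : Subgroup G) : Prop :=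
  Group.IsNilpotent C ∧ Subgroup.normalizer (C : Set G) = C

theorem eq_top_of_normalizer_eq_of_isNilpotent [hn : Group.IsNilpotent G] {C : Subgroup G}
    (h : Subgroup.normalizer (C : Set G) = C) : C = ⊤ := by
  by_contra hne
  exact (Group.normalizerCondition_of_isNilpotent C (lt_top_iff_ne_top.2 hne)).ne h.symm

theorem IsCarterSubgroup.subgroupOf {C L : Subgroup G} (hC : IsCarterSubgroup C) (hle : C ≤ L) :
    IsCarterSubgroup (C.subgroupOf L) := by
  haveI := hC.1
  exact ⟨(Group.isNilpotent_congr (Subgroup.subgroupOfEquivOfLe hle)).2 hC.1, by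
    rw [← Subgroup.subgroupOf_normalizer_eq hle, hC.2]⟩

theorem IsCarterSubgroup.conj {C : Subgroup G} (hC : IsCarterSubgroup C) (g : G) :
    IsCarterSubgroup (MulAut.conj g • C) := by
  refine ⟨(Group.isNilpotent_congr (Subgroup.equivSMul (MulAut.conj g) C)).1 hC.1, ?_⟩
  change Subgroup.normalizer ((C.map (MulAut.conj g).toMonoidHom : Subgroup G) : Set G) = _
  rw [← Subgroup.map_equiv_normalizer_eq, hC.2]
  rfl

/-- Conjugacy of Carter subgroups in every proper subgroup. -/
def CarterConjBelow (G : Type u) [Group G] : Prop :=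
  ∀ X : Subgroup G, X ≠ ⊤ → ∀ C D : Subgroup X, IsCarterSubgroup C → IsCarterSubgroup D →
    ∃ x : X, MulAut.conj x • C = D

theorem exists_conj_of_le (hconj : CarterConjBelow G) {X C D : Subgroup G} (hX : X ≠ ⊤)
    (hC : IsCarterSubgroup C) (hD : IsCarterSubgroup D) (hCX : C ≤ X) (hDX : D ≤ X) :
    ∃ x ∈ X, MulAut.conj x • C = D := by
  obtain ⟨x, hx⟩ := hconj X hX _ _ (hC.subgroupOf hCX) (hD.subgroupOf hDX)
  refine ⟨x, x.2, ?_⟩
  rw [Subgroup.conj_smul_subgroupOf hCX x] at hx
  have := congrArg (Subgroup.map X.subtype) hx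
  rwa [Subgroup.map_subgroupOf_eq_of_le (Subgroup.conj_smul_le_of_le hCX x),
    Subgroup.map_subgroupOf_eq_of_le hDX] at this

/-- Every subgroup above a Carter subgroup is self-normalising. -/
theorem normalizer_eq_of_ge (hconj : CarterConjBelow G) {C X : Subgroup G}
    (hC : IsCarterSubgroup C) (hCX : C ≤ X) : Subgroup.normalizer (X : Set G) = X := by
  refine le_antisymm (fun g hg => ?_) Subgroup.le_normalizer
  rcases eq_or_ne X ⊤ with rfl | hX
  · exact Subgroup.mem_top g
  have hgC : MulAut.conj g • C ≤ X := by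
    rintro _ ⟨c, hc, rfl⟩
    exact (Subgroup.mem_normalizer_iff.1 hg c).1 (hCX hc)
  obtain ⟨x, hxX, hx⟩ := exists_conj_of_le hconj hX (hC.conj g) hC hgC hCX
  rw [← mul_smul, ← map_mul] at hx
  have h2 : x * g ∈ C := hC.2 ▸ CfsgLib.CoprimeAction.conj_smul_eq_self.1 hx
  exact (X.mul_mem_cancel_left hxX).1 (hCX h2)

/-- Existence step. -/
theorem exists_isCarterSubgroup_step [Finite G] [Group.IsSolvable G] {N : Subgroup G} [N.Normal]
    [IsMulCommutative N] (hmin : ∀ M : Subgroup G, M.Normal → M ≤ N → M = ⊥ ∨ M = N)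
    (hquot : ∃ Cb : Subgroup (G ⧸ N), IsCarterSubgroup Cb)
    (hsub : ∀ L : Subgroup G, L ≠ ⊤ →
      (∃ C : Subgroup L, IsCarterSubgroup C) ∧ CarterConjBelow L) :
    ∃ C : Subgroup G, IsCarterSubgroup C := by
  obtain ⟨Cb, hCb⟩ := hquot
  set f := QuotientGroup.mk' N with hf
  have hfs : Function.Surjective f := QuotientGroup.mk'_surjective N
  set L := Cb.comap f with hL
  have hNL : N ≤ L := fun x hx => by
    rw [hL, Subgroup.mem_comap, show f x = 1 from (QuotientGroup.eq_one_iff x).2 hx]
    exact Cb.one_mem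
  have hLn : Subgroup.normalizer (L : Set G) = L := by
    rw [hL, ← Subgroup.comap_normalizer_eq_of_surjective Cb hfs, hCb.2]
  by_cases hLt : L = ⊤
  · haveI : Group.IsNilpotent (G ⧸ N) := by
      have h1 : Cb = ⊤ := Subgroup.comap_injective hfs (by rw [← hL, hLt, Subgroup.comap_top])
      have := hCb.1
      rw [h1] at this
      exact Group.isNilpotent_top.1 this
    by_cases hnil : Group.IsNilpotent G
    · exact ⟨⊤, Group.isNilpotent_top.2 hnil, Subgroup.normalizer_eq_top _⟩
    obtain ⟨M, hM, hNM⟩ : ∃ M : Subgroup G, IsCoatom M ∧ ¬ N ≤ M := by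
      by_contra! hcon
      refine hnil ((Group.isNilpotent_of_finite_tfae (G := G)).out 2 0 |>.1 fun M hM => ?_)
      have hker : f.ker ≤ M := by rw [hf, QuotientGroup.ker_mk']; exact hcon M hM
      have hco : IsCoatom (M.map f) := by
        refine ⟨fun h => hM.1 ?_, fun K hK => ?_⟩
        · rw [← Subgroup.comap_map_eq_self hker, h, Subgroup.comap_top]
        · apply Subgroup.comap_injective hfs
          rw [Subgroup.comap_top]
          refine hM.2 _ ?_
          rw [← Subgroup.comap_map_eq_self hker]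
          exact (Subgroup.comap_lt_comap_of_surjective hfs).2 hK
      have := ((Group.isNilpotent_of_finite_tfae (G := G ⧸ N)).out 0 2 rfl rfl |>.mp
        (inferInstance : Group.IsNilpotent (G ⧸ N))) _ hco
      rw [← Subgroup.comap_map_eq_self hker]
      exact this.comap f
    have hc := isComplement'_of_minimal_normal_of_isCoatom hmin hM hNM
    haveI hMn : Group.IsNilpotent M := by
      have hinj : Function.Injective (f.comp M.subtype) := by
        rw [← MonoidHom.ker_eq_bot_iff, eq_bot_iff]
        intro x hx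
        rw [MonoidHom.mem_ker, MonoidHom.comp_apply] at hx
        have hm : (x : G) ∈ N ⊓ M := ⟨(QuotientGroup.eq_one_iff _).1 hx, x.2⟩
        rw [disjoint_iff.1 hc.disjoint, Subgroup.mem_bot] at hm
        exact Subtype.ext hm
      exact (Group.isNilpotent_congr (MonoidHom.ofInjective hinj)).2 inferInstance
    refine ⟨M, hMn, ?_⟩
    by_contra hne
    have htop := hM.2 _ (lt_of_le_of_ne Subgroup.le_normalizer (Ne.symm hne))
    haveI : M.Normal := Subgroup.normalizer_eq_top_iff.1 htop
    haveI : Group.IsNilpotent N := by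
      refine isNilpotent_of_commutator_le_centralizer ?_
      rw [Subgroup.commutator_self_eq_bot_iff.2 ‹IsMulCommutative N›]
      exact bot_le
    have h2 := isNilpotent_sup_of_normal (N := N) (M := M) inferInstance hMn
    rw [hc.sup_eq_top] at h2
    exact hnil (Group.isNilpotent_top.1 h2)
  · obtain ⟨⟨C, hC⟩, hcL⟩ := hsub L hLt
    set C' := C.map L.subtype with hC'
    have hC'L : C' ≤ L := Subgroup.map_subtype_le C
    have hC'nil : Group.IsNilpotent C' :=
      (Group.isNilpotent_congr (C.equivMapOfInjective L.subtype L.subtype_injective)).1 hC.1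
    have hCsub : C'.subgroupOf L = C := Subgroup.comap_map_eq_self_of_injective L.subtype_injective C
    set X := C' ⊔ N with hX
    have hXL : X ≤ L := sup_le hC'L hNL
    have hXn : ∀ x ∈ L, x ∈ Subgroup.normalizer (X : Set G) → x ∈ X := by
      intro x hx hn
      have h := normalizer_eq_of_ge hcL (X := X.subgroupOf L) hC
        (hCsub ▸ Subgroup.comap_mono le_sup_left)
      rw [← Subgroup.subgroupOf_normalizer_eq hXL] at h
      have h2 : (⟨x, hx⟩ : L) ∈ X.subgroupOf L :=
        h.le (show (⟨x, hx⟩ : L) ∈ (Subgroup.normalizer (X : Set G)).subgroupOf L from hn)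
      exact h2
    have hker : f.ker ≤ X := by rw [hf, QuotientGroup.ker_mk']; exact le_sup_right
    have hXeq : X = L := by
      refine le_antisymm hXL ?_
      by_contra hnle
      have hlt : X.map f < Cb := by
        refine lt_of_le_of_ne ?_ fun heq => hnle ?_
        · rw [← Subgroup.map_comap_eq_self_of_surjective hfs Cb]
          exact Subgroup.map_mono hXL
        · rw [hL, ← heq, Subgroup.comap_map_eq_self hker]
      obtain ⟨y, hy, hy'⟩ := SetLike.exists_of_lt (lt_normalizer_inf_of_isNilpotent hCb.1 hlt)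
      obtain ⟨x, rfl⟩ := hfs y
      refine hy' (Subgroup.mem_map_of_mem f (hXn x hy.1 ?_))
      rw [← Subgroup.comap_map_eq_self hker, ← Subgroup.comap_normalizer_eq_of_surjective _ hfs]
      exact hy.2
    refine ⟨C', hC'nil, le_antisymm (fun g hg => ?_) Subgroup.le_normalizer⟩
    have hgX : g ∈ Subgroup.normalizer (X : Set G) :=
      CfsgLib.Subnormal.le_normalizer_sup (Subgroup.zpowers_le.2 hg)
        Subgroup.le_normalizer_of_normal (Subgroup.mem_zpowers g)
    rw [hXeq, hLn] at hgX
    have h2 : (⟨g, hgX⟩ : L) ∈ Subgroup.normalizer (C : Set L) := by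
      rw [← hCsub, ← Subgroup.subgroupOf_normalizer_eq hC'L]
      exact hg
    rw [hC.2] at h2
    exact Subgroup.mem_map_of_mem L.subtype h2

/-- A Carter complement of an abelian minimal normal `p`-subgroup is the normaliser of its
Hall `p'`-subgroup. -/
theorem exists_hall_normalizer_eq [Finite G] {p : ℕ} [hp : Fact p.Prime] {N C : Subgroup G}
    [N.Normal] [IsMulCommutative N] (hN : N ≠ ⊥) (hNp : IsPGroup p N)
    (hmin : ∀ M : Subgroup G, M.Normal → M ≤ N → M = ⊥ ∨ M = N)
    (hC : IsCarterSubgroup C) (hc : Subgroup.IsComplement' N C) :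
    ∃ Q : Subgroup G, Cfsg.IsPiHall {q : ℕ | q ≠ p} Q ∧ Subgroup.normalizer (Q : Set G) = C := by
  haveI := hC.1
  set Q := (Cfsg.pPrimeCore p C).map C.subtype with hQ
  set P := (Cfsg.pCore p C).map C.subtype with hP
  -- indices inside `C`
  have hidxP : ¬ p ∣ (Cfsg.pCore p C).index := by
    obtain ⟨S⟩ := (Sylow.nonempty : Nonempty (Sylow p C))
    rw [pCore_eq_sylow_of_normal S]
    exact S.not_dvd_index
  have hidxQ : ∀ q : ℕ, q.Prime → q ≠ p → ¬ q ∣ (Cfsg.pPrimeCore p C).index := by
    intro q hq hne hd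
    haveI := Fact.mk hq
    obtain ⟨S⟩ := (Sylow.nonempty : Nonempty (Sylow q C))
    have hle : (S : Subgroup C) ≤ Cfsg.pPrimeCore p C := by
      refine le_pPrimeCore ?_
      rw [S.card_eq_multiplicity]
      exact Nat.Coprime.pow_left _ ((Nat.coprime_primes hq hp.out).2 hne)
    exact S.not_dvd_index (hd.trans (Subgroup.index_dvd_of_le hle))
  have hsupC : P ⊔ Q = C := by
    have htop : Cfsg.pCore p C ⊔ Cfsg.pPrimeCore p C = ⊤ := by
      rw [← Subgroup.index_eq_one]
      by_contra hne
      obtain ⟨q, hq, hd⟩ := Nat.exists_prime_and_dvd hne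
      rcases eq_or_ne q p with rfl | hqp
      · exact hidxP (hd.trans (Subgroup.index_dvd_of_le le_sup_left))
      · exact hidxQ q hq hqp (hd.trans (Subgroup.index_dvd_of_le le_sup_right))
    rw [hP, hQ, ← Subgroup.map_sup, htop, ← MonoidHom.range_eq_map, Subgroup.range_subtype]
  have hCQ : C ≤ Subgroup.normalizer (Q : Set G) :=
    Subgroup.le_normalizer.trans (normalizer_le_normalizer_map_subtype C (Cfsg.pPrimeCore p C))
  have hCP : C ≤ Subgroup.normalizer (P : Set G) :=
    Subgroup.le_normalizer.trans (normalizer_le_normalizer_map_subtype C (Cfsg.pCore p C))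
  refine ⟨Q, ⟨fun q hq hd => ?_, fun q hq hne hd => ?_⟩, ?_⟩
  · rintro rfl
    rw [hQ, Subgroup.card_map_of_injective C.subtype_injective] at hd
    exact not_dvd_card_pPrimeCore hd
  · rw [hQ, Subgroup.index_map_subtype] at hd
    rcases hq.dvd_mul.1 hd with h | h
    · exact hidxQ q hq hne h
    · rw [hc.symm.symm.index_eq_card] at h
      obtain ⟨k, hk⟩ := IsPGroup.iff_card.1 hNp
      rw [hk] at h
      exact hne ((Nat.prime_dvd_prime_iff_eq hq hp.out).1 (hq.dvd_of_dvd_pow h))
  have hCco : ∀ X : Subgroup G, C ≤ X → X ≠ C → X = ⊤ := by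
    intro X hX hne
    have hXN : X ⊓ N ≠ ⊥ := fun hb => hne <| le_antisymm (fun x hx => by
      obtain ⟨⟨n, c⟩, he⟩ := (hc.existsUnique x).exists
      simp only at he
      have hn : (n : G) ∈ X ⊓ N := by
        refine ⟨?_, n.2⟩
        have h1 := X.mul_mem hx (X.inv_mem (hX c.2))
        rw [← he] at h1
        simpa using h1
      rw [hb, Subgroup.mem_bot] at hn
      rw [← he, hn, one_mul]
      exact c.2) hX
    have hn : (X ⊓ N).Normal := by
      rw [← Subgroup.normalizer_eq_top_iff, eq_top_iff, ← hc.sup_eq_top, sup_le_iff]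
      constructor
      · refine le_trans ?_ (Subgroup.centralizer_le_normalizer _)
        rw [Subgroup.le_centralizer_iff]
        exact inf_le_right.trans (Subgroup.le_centralizer_iff_isMulCommutative.2 ‹_›)
      · intro c hcC
        refine CfsgLib.CoprimeAction.mem_normalizer_of_conj_mem fun x hx => ?_
        exact ⟨X.mul_mem (X.mul_mem (hX hcC) hx.1) (X.inv_mem (hX hcC)),
          Subgroup.Normal.conj_mem inferInstance _ hx.2 c⟩
    have hNX : N ≤ X := by
      have := (hmin _ hn inf_le_right).resolve_left hXN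
      exact this ▸ inf_le_left
    exact top_le_iff.1 (hc.sup_eq_top.ge.trans (sup_le hNX hX))
  by_contra hne
  have hQn : Q.Normal := Subgroup.normalizer_eq_top_iff.1 (hCco _ hCQ hne)
  have hQC : Q ≤ C := Subgroup.map_subtype_le _
  have hNQ : N ≤ Subgroup.centralizer (Q : Set G) := by
    intro n hn
    rw [Subgroup.mem_centralizer_iff]
    intro q hq
    exact Subgroup.commute_of_normal_of_disjoint Q N hQn inferInstance
      (hc.disjoint.symm.mono_left hQC) q n hq hn
  set F := N ⊓ Subgroup.centralizer (P : Set G) with hF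
  have hFne : F ≠ ⊥ := by
    have hPN : P ≤ Subgroup.normalizer (N : Set G) := Subgroup.le_normalizer_of_normal
    let φ : P →* MulAut N := (Subgroup.normalizerMonoidHom N).comp (Subgroup.inclusion hPN)
    letI : MulAction P N := MulAction.compHom N φ
    have hPp : IsPGroup p P := (isPGroup_pCore p C).map C.subtype
    have hdvd : p ∣ Nat.card N := by
      rcases hNp.card_eq_or_dvd with h | h
      · exact absurd (Subgroup.card_eq_one.1 h) hN
      · exact h
    obtain ⟨b, hb, hb1⟩ := hPp.exists_fixed_point_of_prime_dvd_card_of_fixed_point N hdvd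
      (a := (1 : N)) (fun z => map_one (φ z))
    intro hbot
    have hm : (b : G) ∈ F := by
      refine ⟨b.2, Subgroup.mem_centralizer_iff.2 fun y hy => ?_⟩
      have h2 : y * (b : G) * y⁻¹ = b := congrArg Subtype.val (hb ⟨y, hy⟩)
      exact mul_inv_eq_iff_eq_mul.1 h2
    rw [hbot, Subgroup.mem_bot] at hm
    exact hb1 (Subtype.ext hm.symm)
  have hFn : F.Normal := by
    rw [← Subgroup.normalizer_eq_top_iff, eq_top_iff, ← hc.sup_eq_top, sup_le_iff]
    constructor
    · refine le_trans ?_ (Subgroup.centralizer_le_normalizer _)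
      rw [Subgroup.le_centralizer_iff]
      exact inf_le_left.trans (Subgroup.le_centralizer_iff_isMulCommutative.2 ‹_›)
    · intro c hcC
      refine CfsgLib.CoprimeAction.mem_normalizer_of_conj_mem fun x hx =>
        ⟨Subgroup.Normal.conj_mem inferInstance _ hx.1 c, ?_⟩
      refine Subgroup.mem_centralizer_iff.2 fun y hy => ?_
      have hy' : c⁻¹ * y * c ∈ P := by
        simpa using (Subgroup.mem_normalizer_iff.1 (hCP (C.inv_mem hcC)) y).1 hy
      calc y * (c * x * c⁻¹) = c * ((c⁻¹ * y * c) * x) * c⁻¹ := by group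
        _ = c * (x * (c⁻¹ * y * c)) * c⁻¹ := by rw [Subgroup.mem_centralizer_iff.1 hx.2 _ hy']
        _ = c * x * c⁻¹ * y := by group
  have hNP : N ≤ Subgroup.centralizer (P : Set G) :=
    ((hmin F hFn inf_le_left).resolve_left hFne).symm ▸ inf_le_right
  have hNC : N ≤ C := by
    refine le_of_le_of_eq ?_ hC.2
    refine le_trans ?_ (Subgroup.centralizer_le_normalizer _)
    rw [Subgroup.le_centralizer_iff, ← hsupC, sup_le_iff]
    exact ⟨Subgroup.le_centralizer_iff.1 hNP, Subgroup.le_centralizer_iff.1 hNQ⟩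
  exact hN (le_bot_iff.1 (hc.disjoint.eq_bot ▸ le_inf le_rfl hNC))

/-- Conjugacy step. -/
theorem carterConj_step [Finite G] [Group.IsSolvable G] {N : Subgroup G} [N.Normal]
    [IsMulCommutative N] (hN : N ≠ ⊥)
    (hmin : ∀ M : Subgroup G, M.Normal → M ≤ N → M = ⊥ ∨ M = N)
    (hquot : ∀ Cb Db : Subgroup (G ⧸ N), IsCarterSubgroup Cb → IsCarterSubgroup Db →
      ∃ q : G ⧸ N, MulAut.conj q • Cb = Db)
    (hconj : CarterConjBelow G) {C D : Subgroup G} (hC : IsCarterSubgroup C)
    (hD : IsCarterSubgroup D) : ∃ g : G, MulAut.conj g • C = D := by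
  set f := QuotientGroup.mk' N with hf
  have hfs : Function.Surjective f := QuotientGroup.mk'_surjective N
  have himg : ∀ {E : Subgroup G}, IsCarterSubgroup E → IsCarterSubgroup (E.map f) := by
    intro E hE
    haveI := hE.1
    refine ⟨isNilpotent_map E f, Subgroup.comap_injective hfs ?_⟩
    rw [Subgroup.comap_normalizer_eq_of_surjective _ hfs, Subgroup.comap_map_eq, hf,
      QuotientGroup.ker_mk']
    exact normalizer_eq_of_ge hconj hE le_sup_left
  obtain ⟨q, hq⟩ := hquot _ _ (himg hC) (himg hD)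
  obtain ⟨g, rfl⟩ := hfs q
  set C2 := MulAut.conj g • C with hC2
  have hC2c : IsCarterSubgroup C2 := hC.conj g
  have heq : C2 ⊔ N = D ⊔ N := by
    have h1 : C2.map f = D.map f := by
      rw [← hq, hC2]
      ext z
      constructor
      · rintro ⟨_, ⟨c, hc, rfl⟩, rfl⟩
        exact ⟨f c, Subgroup.mem_map_of_mem f hc, by simp [MulAut.conj_apply]⟩
      · rintro ⟨_, ⟨c, hc, rfl⟩, rfl⟩
        exact ⟨g * c * g⁻¹, ⟨c, hc, rfl⟩, by simp [MulAut.conj_apply]⟩
    have h2 := congrArg (Subgroup.comap f) h1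
    rwa [Subgroup.comap_map_eq, Subgroup.comap_map_eq, hf, QuotientGroup.ker_mk'] at h2
  suffices h : ∃ x : G, MulAut.conj x • C2 = D by
    obtain ⟨x, hx⟩ := h
    exact ⟨x * g, by rw [map_mul, mul_smul]; exact hx⟩
  by_cases hL : C2 ⊔ N = ⊤
  swap
  · obtain ⟨x, -, hx⟩ := exists_conj_of_le hconj hL hC2c hD le_sup_left (heq ▸ le_sup_left)
    exact ⟨x, hx⟩
  by_cases hnil : Group.IsNilpotent G
  · exact ⟨1, by rw [map_one, one_smul, eq_top_of_normalizer_eq_of_isNilpotent hC2c.2,
      eq_top_of_normalizer_eq_of_isNilpotent hD.2]⟩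
  have hcomp : ∀ {E : Subgroup G}, IsCarterSubgroup E → E ⊔ N = ⊤ →
      Subgroup.IsComplement' N E := by
    intro E hE htop
    have hn : (N ⊓ E).Normal := by
      rw [← Subgroup.normalizer_eq_top_iff, eq_top_iff, ← htop, sup_le_iff]
      constructor
      · intro c hcE
        refine CfsgLib.CoprimeAction.mem_normalizer_of_conj_mem fun x hx => ?_
        exact ⟨Subgroup.Normal.conj_mem inferInstance _ hx.1 c,
          E.mul_mem (E.mul_mem hcE hx.2) (E.inv_mem hcE)⟩
      · refine le_trans ?_ (Subgroup.centralizer_le_normalizer _)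
        rw [Subgroup.le_centralizer_iff]
        exact inf_le_left.trans (Subgroup.le_centralizer_iff_isMulCommutative.2 ‹_›)
    have hdisj : N ⊓ E = ⊥ := (hmin _ hn inf_le_left).resolve_right fun h => hnil (by
      have hNE : N ≤ E := inf_eq_left.1 h
      have hEt : E = ⊤ := by rw [← htop, sup_eq_left.2 hNE]
      exact Group.isNilpotent_top.1 (hEt ▸ hE.1))
    refine Subgroup.isComplement'_of_disjoint_and_mul_eq_univ (disjoint_iff.2 hdisj) ?_
    rw [← Subgroup.normal_mul, sup_comm, htop, Subgroup.coe_top]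
  obtain ⟨p, hp, hpow⟩ := exists_prime_pow_eq_one_of_minimal_normal hN hmin
  haveI := Fact.mk hp
  have hNp : IsPGroup p N := fun x => ⟨1, Subtype.ext (by simpa using hpow x x.2)⟩
  obtain ⟨Q1, hQ1, hn1⟩ := exists_hall_normalizer_eq hN hNp hmin hC2c (hcomp hC2c hL)
  obtain ⟨Q2, hQ2, hn2⟩ := exists_hall_normalizer_eq hN hNp hmin hD (hcomp hD (heq ▸ hL))
  obtain ⟨x, hx⟩ := CfsgLib.Hall.isPiHall_isConj hQ1 hQ2
  refine ⟨x, ?_⟩
  rw [← hn1, ← hn2, ← hx]
  exact Subgroup.map_equiv_normalizer_eq Q1 (MulAut.conj x)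

theorem carter_aux : ∀ (n : ℕ) (G : Type u) [Group G] [Finite G] [Group.IsSolvable G],
    Nat.card G ≤ n → (∃ C : Subgroup G, IsCarterSubgroup C) ∧
      ∀ C D : Subgroup G, IsCarterSubgroup C → IsCarterSubgroup D →
        ∃ g : G, MulAut.conj g • C = D := by
  intro n
  induction n with
  | zero =>
    intro G _ _ _ hn
    exact absurd hn (not_le.2 Nat.card_pos)
  | succ n ih =>
    intro G _ _ _ hn
    rcases subsingleton_or_nontrivial G with hs | hnt
    · refine ⟨⟨⊤, inferInstance, ?_⟩, fun C D _ _ => ⟨1, ?_⟩⟩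
      · exact Subsingleton.elim _ _
      · exact Subsingleton.elim _ _
    obtain ⟨N, hNn, -, hN, hmin⟩ := exists_minimal_normal_le (G := G) (K := ⊤) top_ne_bot
    haveI := hNn
    haveI := isMulCommutative_of_minimal_normal_of_isSolvable hN hmin
    have hlt : Nat.card (G ⧸ N) < Nat.card G := by
      have h1 := Subgroup.index_mul_card N
      have h2 : 1 < Nat.card N := (Subgroup.one_lt_card_iff_ne_bot N).2 hN
      rw [← Subgroup.index, ← h1]
      exact lt_mul_of_one_lt_right (Nat.pos_of_ne_zero N.index_ne_zero_of_finite) h2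
    haveI : Group.IsSolvable (G ⧸ N) :=
      Group.isSolvable_of_surjective (QuotientGroup.mk'_surjective N)
    have hq := ih (G ⧸ N) (by omega)
    have hsmall : ∀ (H : Type u) [Group H] [Finite H] (L : Subgroup H), L ≠ ⊤ →
        Nat.card L < Nat.card H := fun H _ _ L hL => by
      refine lt_of_le_of_ne (Nat.le_of_dvd Nat.card_pos (Subgroup.card_subgroup_dvd_card L)) fun h => ?_
      exact hL (Subgroup.eq_top_of_card_eq L h)
    have hbelow : CarterConjBelow G := fun X hX C D hC hD =>
      (ih X (by have := hsmall G X hX; omega)).2 C D hC hD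
    refine ⟨exists_isCarterSubgroup_step hmin hq.1 fun L hL => ?_,
      fun C D hC hD => carterConj_step hN hmin hq.2 hbelow hC hD⟩
    have hL' := hsmall G L hL
    exact ⟨(ih L (by omega)).1, fun X hX C D hC hD =>
      (ih X (by have := hsmall L X hX; omega)).2 C D hC hD⟩

theorem exists_isCarterSubgroup [Finite G] [Group.IsSolvable G] :
    ∃ C : Subgroup G, IsCarterSubgroup C :=
  (carter_aux (Nat.card G) G le_rfl).1

theorem isCarterSubgroup_isConj [Finite G] [Group.IsSolvable G] {C D : Subgroup G}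
    (hC : IsCarterSubgroup C) (hD : IsCarterSubgroup D) : ∃ g : G, MulAut.conj g • C = D :=
  (carter_aux (Nat.card G) G le_rfl).2 C D hC hD

end CfsgLib.Cores
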